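import Mathlib
import Cfsg.Agent.Lib.MType.Cent

/-!
Lifting conjugation and commutator relations of elements of odd prime order through a 2-group kernel.
-/

namespace CfsgLib.MType

open Cfsg CfsgLib.Leech Subgroup
open CfsgLib.LargeExtra (mem_cent)

section
variable {H K : Type*} [Group H] [Finite H] [Group K] {π : H →* K}

theorem lift_conj (h1 : Function.Surjective π) (h2 : IsPGroup 2 π.ker) {p : ℕ} (hp : p.Prime) (hp2 : p ≠ 2)
    {y : H} (hy : y ^ p = 1) {τ : K} {i : ℕ} (h : τ * π y * τ⁻¹ = π y ^ i) :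
    ∃ k : H, π k = τ ∧ k * y * k⁻¹ = y ^ i := by
  obtain ⟨k, rfl⟩ := h1 τ
  obtain ⟨n, hn⟩ := IsPGroup.iff_card.mp h2
  obtain ⟨s, hs, e⟩ := exists_conj_of_coset (N := π.ker) hp (by
      rw [hn]; exact fun h => hp2 ((Nat.prime_dvd_prime_iff_eq hp Nat.prime_two).mp (hp.dvd_of_dvd_pow h)))
    (g := y ^ i) (b := k * y * k⁻¹) (by rw [← pow_mul, mul_comm, pow_mul, hy, one_pow])
    (by rw [conj_pow, hy]; simp) fun s hs => by
      rw [MonoidHom.mem_ker] at hs ⊢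
      simp only [map_mul, map_inv, map_pow, hs, h, mul_one, mul_inv_cancel]
  refine ⟨s * k, by rw [map_mul, show π s = 1 from hs, one_mul], ?_⟩
  calc s * k * y * (s * k)⁻¹ = s * (k * y * k⁻¹) * s⁻¹ := by group
    _ = y ^ i := by rw [← e]; group

theorem lift_comm (h1 : Function.Surjective π) (h2 : IsPGroup 2 π.ker) {p : ℕ} (hp : p.Prime) (hp2 : p ≠ 2)
    {y : H} (hy : y ^ p = 1) {α β : K} (ha : α * π y = π y * α) (hb : β * π y = π y * β)
    (h : α * β = π y * (β * α)) :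
    ∃ a b : H, a * y = y * a ∧ b * y = y * b ∧ y ∈ zpowers (a * b * a⁻¹ * b⁻¹) := by
  obtain ⟨a, rfl, ha'⟩ := lift_conj h1 h2 hp hp2 hy (τ := α) (i := 1) (by rw [ha]; simp)
  obtain ⟨b, rfl, hb'⟩ := lift_conj h1 h2 hp hp2 hy (τ := β) (i := 1) (by rw [hb]; simp)
  rw [pow_one, mul_inv_eq_iff_eq_mul] at ha' hb'
  refine ⟨a, b, ha', hb', ?_⟩
  have hc : Commute y (a * b * a⁻¹ * b⁻¹) :=
    (((Commute.symm ha').mul_right (Commute.symm hb')).mul_right (Commute.symm ha').inv_right).mul_right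
      (Commute.symm hb').inv_right
  have hk : y⁻¹ * (a * b * a⁻¹ * b⁻¹) ∈ π.ker := by
    rw [MonoidHom.mem_ker]
    simp only [map_mul, map_inv, h]
    group
  obtain ⟨n, hn⟩ := h2 ⟨_, hk⟩
  have h3 : (y⁻¹ * (a * b * a⁻¹ * b⁻¹)) ^ 2 ^ n = 1 := congrArg Subtype.val hn
  rw [hc.inv_left.mul_pow, inv_pow, inv_mul_eq_one] at h3
  have h4 : (2 ^ n).Coprime (orderOf y) :=
    ((Nat.coprime_primes Nat.prime_two hp).mpr hp2.symm).pow_left n |>.coprime_dvd_right
      (orderOf_dvd_of_pow_eq_one hy)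
  have h5 : y ∈ zpowers (y ^ 2 ^ n) := mem_zpowers_pow_iff.mpr h4
  rw [h3] at h5
  exact zpowers_le.mpr (npow_mem_zpowers _ _) h5

end

variable {G : Type*} [Group G] {Q : Subgroup G} {z : G} {L : leechLattice → G → Prop}
  {e : centralizer ({z} : Set G) →* Spor.Co1}

theorem MT.exists_pi' (m : MT Q z L e) {s : G} (hs : L (e8 none) s) {b : centralizer ({z, s} : Set G)} {σ : M24}
    (hβ : (QuotientGroup.mk (permAut σ) : Spor.Co1) = e (inc2 z s b)) :
    ∃ π : centralizer ({z, s} : Set G) →* M24, Function.Surjective π ∧ IsPGroup 2 π.ker ∧ π b = σ ∧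
      ∀ k (g : Co0), (QuotientGroup.mk g : Spor.Co1) = e (inc2 z s k) → PP g (π k) := by
  obtain ⟨π, h1, h2, h3⟩ := m.exists_pi hs
  exact ⟨π, h1, h2, (h3 _ _ hβ).unique (pp_permAut σ), h3⟩

end CfsgLib.MType
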