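import Mathlib
import Cfsg.Agent.Lib.MType.Cent

/-!
The two classes of elements of order 3 of `M24`, and the corresponding elements of `C(z,s)`.
-/

set_option Elab.async false
set_option maxRecDepth 100000

namespace CfsgLib.MType

open Cfsg CfsgLib.Leech CfsgLib.Golay Subgroup
open CfsgLib.Mathieu (P24 app code comp cpow idc inM24 code_mul has_M24 code_injective)
open CfsgLib.LargeExtra (mem_cent)

/-- an element of cycle type `1⁶3⁶` -/
def sgA : ℕ := 0x4e4c4a84b7ba8d356c83c0a488ee1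

/-- an element of cycle type `3⁸` -/
def sgB : ℕ := 0x1588a9242525d3a19abb3cf180ee1

/-- elements `∞ ↦ 0 ↦ 1 ↦ ∞`, `2 ↦ 3 ↦ k` -/
def threeT : List ℕ := [0x0, 0x0,
  0x2d8db25d444672819477d4a410ee1, 0x0,
  0x3aa77b66292e2a42606b328520ee1, 0x25af45232aba0b232d33284728ee1,
  0xab4b25119b5c792c9063d4530ee1, 0x20915d5262c9afb384c9d20a38ee1,
  0x3a725d5b1498b661e0fa114240ee1, 0x308aa165531ed1121ae5ce0f48ee1,
  0x46c4aa5a25a0a794e907b0ce50ee1, 0x152893e6e6d235628d681c8258ee1,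
  0x1e9122ab073e4d308a89aec960ee1, 0x2caf8c104aaa89932c7138d368ee1,
  0x19e764ca88454ba4924b544d70ee1, 0x2446712a755a545b5132c59078ee1,
  0x154b354f19c84c792964352e80ee1, 0x550b5244ca39f03cc92334b688ee1,
  0x39543312224235b4d6f434e590ee1, 0x21c713e8d4ad56ac24c8948698ee1,
  0x24562a0907acea332ad8ba72a0ee1, 0x395042d8595844a1d33699f1a8ee1,
  0x41ab53aa9232428d265419e7b0ee1, 0x0]

/-- conjugating elements -/
def threeW : List (ℕ × ℕ) := [(0x4590b22654adc66c8ea7d68220ee1, 0x5aaa32dc47960c4269299e2d18ae1),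
  (0x14ed8568e44e2fb194c9256220ee1, 0x4eac916c3336874262f72a0b112e1),
  (0x39566a571ad0b283d873226220ee1, 0x3aa77b66292e2a42606b328520ee1),
  (0x2a1493e289b9acb2c953a44628ee1, 0x424643cb63c48954eb462dcd18ae1),
  (0x5a909b635939e651d285904c28ee1, 0x28d2390b4445ed831769d5c918ae1),
  (0x2ea87ca346ba693a8d0b304428ee1, 0x59935a4b0ac5afa18ea921c418ae1),
  (0x1d156ce307ba445d9945184928ee1, 0x32d421cb27c5159a926835cb18ae1),
  (0x3dc98d116836ab21e532894c30ee1, 0x206915a076b086a55728ba6f516e1),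
  (0x48ab731a9a28f67cc958891030ee1, 0x1e0b229c6916a9a310f6da3318ae1),
  (0x12362c14b62269955e7709b430ee1, 0x3a1694da27aa2ba32a43a50530ee1),
  (0x2e2d7565354096620cf1153438ee1, 0x42a59316d40c5133ce972a76a12e1),
  (0x3cab89935249885526d13a1638ee1, 0x456ca1a42b40aa6bea89912e38ee1),
  (0x35cf2ce066255425aab1464838ee1, 0x4d6a44227a3aa46bd36930a618ae1),
  (0x56043b9b6a19912ae624c94f40ee1, 0x392f3ad42b363325594940c540ee1),
  (0x2675a14c7b2a4e8b1e222db040ee1, 0x588e3ceb212cd060e2a7a134696e1),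
  (0x11e9b45543b56574a02ab0d340ee1, 0x4933a35c839590254d653e2b18ae1),
  (0x4ec5aaa5471c886c4467b20b48ee1, 0x3eab9c0a9645562224d399d418ae1),
  (0x30ce4520f8caa49944b534f648ee1, 0x406612d0a91189ad2cd8b9f3396e1),
  (0x357123cea2c11563856a4e4648ee1, 0x44969aa02648a6455eda2cee48ee1),
  (0x1ec5610d28b52b989d4abd1050ee1, 0x46c4aa5a25a0a794e907b0ce50ee1),
  (0x12513b1b372295b08af824cb50ee1, 0x352e31e76a8c457c9488b290592e1),
  (0x326e21d16299f090a295d1b550ee1, 0x3ec78222aaba8c94ccb690a918ae1),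
  (0x55b243a6f4d2c511e113288c58ee1, 0x4c76125eca1d4b6c8d58b910216e1),
  (0x41e86448734d2e13545b569258ee1, 0x15b654882acdc93bd9041a9158ee1),
  (0x28ec9168db10d113eae4c26858ee1, 0x21a984cab545863be95259d218ae1),
  (0x4904339e75da028ce856aaa960ee1, 0x20c49be2c6ba4aa42c9a9cab18ae1),
  (0x2e4a846a443e822b4ce49ed360ee1, 0x59117aa9048c4e9199529d6d992e1),
  (0x2167a16ca954c272611991ed60ee1, 0x3a8a9c9e26da2781909592a560ee1),
  (0x152c3ccd1aa04ba59e49414e68ee1, 0x40f49a1cd496d25bd4c3562418ae1),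
  (0x39937a545a184791170ad91168ee1, 0x4ecd3449049d8e1aea2a49ea416e1),
  (0x46695b10e9284fac0f6a10c568ee1, 0x45f464142998b23ac89b550e68ee1),
  (0x51b255a333896cac12f418a470ee1, 0x5170955cf215533b6c66222918ae1),
  (0x19769ca2a789b04b2a7250a870ee1, 0x5aaa32dc47960c4269299e2d18ae1),
  (0x4ab461a302092a6cd687d8a770ee1, 0x2644599ca815e79d9b54323418ae1),
  (0x59268522c40ab35a9a43c8af70ee1, 0x4933a35c839590254d653e2b18ae1),
  (0x293192d8615514995c481ecd78ee1, 0x5170955cf215533b6c66222918ae1),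
  (0x514e31ea415a69844b24358b78ee1, 0x14f392aa2259c86ae864c19178ee1),
  (0x2685236d21320a43a269aea778ee1, 0x5873121746364f3aa048b926a96e1),
  (0x468f5b522a9ca8332ca24e4e80ee1, 0x2d8e53e8d1592820e279c0d5916e1),
  (0x1588a9242525d3a19abb3cf180ee1, 0x468f5b522a9ca8332ca24e4e80ee1),
  (0x38d3558e25ca2f650956a12580ee1, 0x59935a4b0ac5afa18ea921c418ae1),
  (0x248d9d450338ec7a916a2cb288ee1, 0x19145da35538ed225f0648b318ae1),
  (0x4e4c4a84b7ba8d356c83c0a488ee1, 0x354ba563643a069c9877a4a418ae1),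
  (0x22a7b1046839b45c93363caa88ee1, 0x3ec78222aaba8c94ccb690a918ae1),
  (0x59544484f5b98781269698b588ee1, 0x4d6a44227a3aa46bd36930a618ae1),
  (0x50cf68a0bb1c858d58e4293390ee1, 0x39543312224235b4d6f434e590ee1),
  (0x5486a092c541ee2b5115ccf690ee1, 0x32d421cb27c5159a926835cb18ae1),
  (0x35e4a88e89a4d17516565a0a90ee1, 0x1c6d151484cdf2b2ea68b984816e1),
  (0x21c713e8d4ad56ac24c8948698ee1, 0x3ad0618824d228548edabd6598ee1),
  (0x3e261408c6d2d23a1492b97598ee1, 0x56c86d1d3614ef549692422618ae1),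
  (0x40b5121696124a33ecd7468798ee1, 0x34f3244d56592e1aa0243e4ba16e1),
  (0x1ac279c8d2ad124c5d06566aa0ee1, 0x21345c54fb30ee19a426d604996e1),
  (0x30e24a275712cd516268496fa0ee1, 0x460d3bc8242cb5619564ca6ea0ee1),
  (0x4102559728ccf57b8ac33489a0ee1, 0x28d2390b4445ed831769d5c918ae1),
  (0x184b2c1889d947492928b9eda8ee1, 0x307413493b221549a4b8b8ea796e1),
  (0x4c508aac43bd664264d71594a8ee1, 0x1d2d530b584672412cb7d1c618ae1),
  (0x1c4a72de933213221b42c6d2a8ee1, 0x1534819e25b1cd4126a3cad1a8ee1),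
  (0x9b232df1855c4a24f352185b0ee1, 0x224ea2544141eb68e3535a67616e1),
  (0x88a5a6ae6b0b0399129d1f1b0ee1, 0x354ba563643a069c9877a4a418ae1),
  (0xa134998523e2d42e8a91eaeb0ee1, 0x3a66a42a243229929a722de5b0ee1)]

theorem threeW_ok : (allL threeW fun x => inM24 x.2 &&
    (Nat.beq (comp x.1 x.2) (comp x.2 sgA) || Nat.beq (comp x.1 x.2) (comp x.2 sgB))) = true := by
  decide +kernel

theorem threeT_ok : (allLT 24 fun k => tb 8388619 k || (inM24 (threeT.getD k 0) &&
    Nat.beq (app (threeT.getD k 0) 23) 0 && Nat.beq (app (threeT.getD k 0) 0) 1 &&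
    Nat.beq (app (threeT.getD k 0) 1) 23 && Nat.beq (app (threeT.getD k 0) 2) 3 &&
    Nat.beq (app (threeT.getD k 0) 3) k && allL L48 fun l => Comput.force (comp (threeT.getD k 0) l)
      fun u => !Nat.beq (cpow u 3) idc || anyL threeW fun x => Nat.beq x.1 u)) = true := by
  decide +kernel

theorem three_cases {a b : M24} (ha : code a = sgA) (hb : code b = sgB) {y : M24}
    (hy : orderOf y = 3) : ∃ τ : M24, y = τ * a * τ⁻¹ ∨ y = τ * b * τ⁻¹ := by
  classical
  have h3 : y ^ 3 = 1 := hy ▸ pow_orderOf_eq_one y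
  have h1 : y ≠ 1 := fun e => by rw [e, orderOf_one] at hy; omega
  have hc : ∀ p : GolayPt, y • y • y • p = p := fun p => by
    rw [← mul_smul, ← mul_smul, ← pow_three', h3, one_smul]
  obtain ⟨p, -, hp⟩ : ∃ p, p ∉ (∅ : Finset GolayPt) ∧ y • p ≠ p := by
    by_contra h; push Not at h; exact h1 (eq_one_of_fix (by simp) h)
  obtain ⟨q, hq, hq'⟩ : ∃ q, q ∉ ({p, y • p, y • y • p} : Finset GolayPt) ∧ y • q ≠ q := by
    by_contra h; push Not at h
    exact h1 (eq_one_of_fix (Finset.card_le_three.trans_lt (by norm_num)) h)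
  simp only [Finset.mem_insert, Finset.mem_singleton, not_or] at hq
  have hi := MulAction.injective (β := GolayPt) y
  obtain ⟨τ, e1, e2, e3, e4, e5⟩ := exists_M24_five (a := pt 23) (b := pt 0) (c := pt 1) (d := pt 2)
    (e := pt 3) (a' := p) (b' := y • p) (c' := y • y • p) (d' := q) (e' := y • q) (by decide) (by
      have f1 : p ≠ y • y • p := fun e => hp ((congrArg (y • ·) e).trans (hc p))
      have f2 : p ≠ y • q := fun e => hq.2.2 (by rw [e, hc])
      simp [hp.symm, f1, f2, hq'.symm, Ne.symm hq.1, Ne.symm hq.2.1, Ne.symm hq.2.2])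
  have hu : ∀ {i j}, i < 24 → j < 24 → y • τ • pt i = τ • pt j →
      app (code (τ⁻¹ * y * τ : M24)) i = j := fun hi hj e => by
    rw [Mathieu.app_code _ hi]
    show ix ((τ⁻¹ * y * τ) • _) = _
    rw [mul_smul, mul_smul, e, inv_smul_smul, ix_pt hj]
  obtain ⟨k, hk, ek⟩ : ∃ k < 24, y • τ • pt 3 = τ • pt k :=
    ⟨_, ix_lt (τ⁻¹ • y • τ • pt 3), by rw [pt_ix, smul_inv_smul]⟩
  have u1 := hu (i := 23) (j := 0) (by norm_num) (by norm_num) (by rw [e1, e2])
  have u2 := hu (i := 0) (j := 1) (by norm_num) (by norm_num) (by rw [e2, e3])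
  have u3 := hu (i := 1) (j := 23) (by norm_num) (by norm_num) (by rw [e3, e1, hc])
  have u4 := hu (i := 2) (j := 3) (by norm_num) (by norm_num) (by rw [e4, e5])
  have u5 := hu (by norm_num) hk ek
  have hk' : tb 8388619 k = false := by
    have : ∀ k < 24, tb 8388619 k = false ∨ k = 0 ∨ k = 1 ∨ k = 23 ∨ k = 3 := by decide +kernel
    rcases this k hk with h | rfl | rfl | rfl | rfl
    · exact h
    · rw [e2, ← e1] at ek; exact absurd (MulAction.injective τ (hi ek)) (by decide)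
    · rw [e3, ← e2] at ek; exact absurd (MulAction.injective τ (hi ek)) (by decide)
    · rw [e1, ← hc p, ← e3] at ek; exact absurd (MulAction.injective τ (hi ek)) (by decide)
    · rw [e5] at ek; exact absurd (hi ek) hq'
  have h4 := of_allLT threeT_ok hk
  simp only [hk', Bool.false_or, Bool.and_eq_true, Nat.beq_eq, allL_iff, Comput.force_eq,
    Bool.or_eq_true, anyL_iff, Bool.not_eq_true', ← Bool.not_eq_true] at h4
  obtain ⟨⟨⟨⟨⟨⟨t0, t1⟩, t2⟩, t3⟩, t4⟩, t5⟩, t6⟩ := h4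
  obtain ⟨l, hl, el⟩ := exists_L48 (τ⁻¹ * y * τ).2 t0 (by
    simp only [List.mem_cons, List.not_mem_nil, or_false, forall_eq_or_imp, forall_eq]
    rw [u1, u2, u3, u4, u5, t1, t2, t3, t4, t5]; simp)
  obtain ⟨x, hx, ex⟩ := (t6 l hl).resolve_left (not_not.mpr (by
    rw [← el, ← Mathieu.code_pow, Mathieu.code_eq_idc, ← coe_pow, ← inv_inv τ, inv_inv τ⁻¹, conj_pow, h3]
    simp))
  have h5 := (allL_iff _ _).mp threeW_ok x hx
  simp only [Bool.and_eq_true, Bool.or_eq_true, Nat.beq_eq] at h5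
  obtain ⟨s, hs, es⟩ := has_M24 h5.1
  rw [ex, ← el, ← es, ← ha, ← hb, ← code_mul, ← code_mul, ← code_mul, code_injective.eq_iff,
    code_injective.eq_iff] at h5
  refine ⟨τ * ⟨s, hs⟩, h5.2.imp (fun h => ?_) fun h => ?_⟩
  · have : τ⁻¹ * y * τ * ⟨s, hs⟩ = ⟨s, hs⟩ * a := Subtype.ext h
    rw [mul_assoc τ, ← this]; group
  · have : τ⁻¹ * y * τ * ⟨s, hs⟩ = ⟨s, hs⟩ * b := Subtype.ext h
    rw [mul_assoc τ, ← this]; group

theorem card_cent_eq (σ : M24) : Nat.card (centralizer ({σ} : Set M24)) =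
    Nat.card ↥(M24 ⊓ centralizer ({σ.1} : Set P24)) := by
  rw [inf_comm, ← subgroupOf_map_subtype, card_map_of_injective (subtype_injective _)]
  congr 2
  ext g
  rw [mem_subgroupOf, mem_cent, mem_cent, Subtype.ext_iff]; rfl

theorem le_card_cent {σ : P24} {a : ℕ} (ha : code σ = a) (lv : List (ℕ × List ℕ))
    (h : (Mathieu.chainOK lv && Mathieu.chainAll lv fun g =>
      inM24 g && Nat.beq (comp g a) (comp a g)) = true) :
    Mathieu.chainProd lv ≤ Nat.card ↥(M24 ⊓ centralizer ({σ} : Set P24)) := by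
  rw [Bool.and_eq_true] at h
  refine Mathieu.chain_le lv (fun x hx g hg => ?_) h.1
  have := Mathieu.of_chainAll h.2 x hx g hg
  rw [Bool.and_eq_true, Nat.beq_eq] at this
  obtain ⟨u, hu, rfl⟩ := has_M24 this.1
  exact ⟨u, ⟨hu, mem_cent.mpr (code_injective (by rw [code_mul, code_mul, ha, this.2]))⟩, rfl⟩

theorem card_cent_M24_le' {σ : P24} {a m2 n : ℕ} (ha : code σ = a) (W : List ℕ)
    (h : (Nat.beq (app a 23) 0 && Nat.beq (app a 0) 1 && Nat.beq (app a 2) 3 && Nat.blt m2 16777216 &&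
      (allLT 24 fun x => tb m2 x || tb 8388611 x || Comput.force (W.getD x 0) fun t => inM24 t &&
        Nat.beq (app t 23) 23 && Nat.beq (app t 0) 0 && Nat.beq (app t 1) 1 && Nat.beq (app t 2) x &&
        Nat.beq (app t 3) (app a x) && allL L48 fun l => Comput.force (comp t l) fun u =>
          !Nat.beq (comp u a) (comp a u)) &&
      Nat.ble (24 * (pc m2 * (L48.filter fun l => Nat.beq (comp l a) (comp a l)).length)) n) = true) :
    Nat.card ↥(M24 ⊓ centralizer ({σ} : Set P24)) ≤ n := by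
  simp only [Bool.and_eq_true, Nat.beq_eq, allLT_iff, Bool.or_eq_true, tb_eq, Nat.blt_eq,
    Nat.ble_eq, Comput.force_eq, allL_iff, Bool.not_eq_true', ← Bool.not_eq_true] at h
  obtain ⟨⟨⟨⟨⟨h0, h1⟩, h2⟩, h4⟩, h5⟩, h6⟩ := h
  have hσ : ∀ {i j}, i < 24 → app a i = j → σ (pt i) = pt j := fun hi e =>
    Mathieu.apply_pt_eq ha hi e
  have hc : ∀ g : P24, g * σ = σ * g → ∀ x, g (σ x) = σ (g x) := fun g hg x => by
    rw [← Equiv.Perm.mul_apply, hg]; rfl
  have f01 : ∀ g : P24, g * σ = σ * g → g (pt 23) = pt 23 → g (pt 0) = pt 0 ∧ g (pt 1) = pt 1 :=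
    fun g hg e => by
      have e0 : g (pt 0) = pt 0 := by rw [← hσ (by norm_num) h0, hc g hg, e]
      exact ⟨e0, by rw [← hσ (by norm_num) h1, hc g hg, e0]⟩
  refine le_trans ((Mathieu.card_le_of_orbit _ (pt 23) Finset.univ fun g _ => Finset.mem_univ _).trans
    (Nat.mul_le_mul (Fintype.card_option.trans (by simp)).le
      ((Mathieu.card_le_of_orbit _ (pt 2) (ofMask m2) fun g hg => ?_).trans
      (Nat.mul_le_mul (card_ofMask h4).le ?_)))) h6
  · obtain ⟨⟨hg, hg1⟩, hg2⟩ := hg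
    have hg1 := mem_cent.mp hg1
    have hg2 : g (pt 23) = pt 23 := hg2
    obtain ⟨f0, f1⟩ := f01 g hg1 hg2
    rw [mem_ofMask]
    rcases h5 _ (ix_lt (g (pt 2))) with (h | h) | ⟨⟨⟨⟨⟨⟨t0, t1⟩, t2⟩, t3⟩, t4⟩, t5⟩, t6⟩
    · exact h
    · have : ∀ x, x ≠ pt 23 → x ≠ pt 0 → x ≠ pt 1 → ¬Nat.testBit 8388611 (ix x) = true := by
        decide +kernel
      exact absurd h (this _ (Mathieu.ne_of_fix hg2 (by decide)) (Mathieu.ne_of_fix f0 (by decide))
        (Mathieu.ne_of_fix f1 (by decide)))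
    · obtain ⟨l, hl, el⟩ := exists_L48 hg t0 (by
        simp only [List.mem_cons, List.not_mem_nil, or_false, forall_eq_or_imp, forall_eq]
        rw [t1, t2, t3, t4, t5, ← ha, Mathieu.app_code_ix, ← hc g hg1, hσ (by norm_num) h2]
        refine ⟨?_, ?_, ?_, ?_, ?_⟩ <;> rw [Mathieu.app_code _ (by norm_num)] <;>
          simp only [hg2, f0, f1] <;> rfl)
      exact absurd (by rw [← el, ← ha, ← code_mul, ← code_mul, hg1]) (t6 l hl)
  · refine le_trans ?_ (List.toFinset_card_le _)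
    rw [← Nat.card_eq_finsetCard]
    refine Nat.card_le_card_of_injective (fun g => ⟨code g.1, ?_⟩)
      fun g g' e => Subtype.ext (code_injective (congrArg Subtype.val e))
    obtain ⟨g, ⟨⟨hg, hg1⟩, hg2⟩, hg3⟩ := g
    have hg1 := mem_cent.mp hg1
    obtain ⟨f0, f1⟩ := f01 g hg1 hg2
    simp only [List.mem_toFinset, List.mem_filter, Nat.beq_eq]
    refine ⟨mem_L48 hg ?_, by rw [← ha, ← code_mul, ← code_mul, hg1]⟩
    simp only [List.mem_cons, List.not_mem_nil, or_false, forall_eq_or_imp, forall_eq]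
    exact ⟨hg2, f0, f1, hg3,
      by rw [← hσ (by norm_num) h2, hc g hg1, show g (pt 2) = pt 2 from hg3]⟩

theorem card_M_B {σ : P24} (hb : code σ = sgB) :
    Nat.card ↥(M24 ⊓ centralizer ({σ} : Set P24)) ≤ 504 :=
  card_cent_M24_le' (m2 := 1315524) hb [0x0, 0x0,
    0x0, 0xbb4859d4e8148d663a2fa2d2a80c20,
    0xbd954a95225b1a744c6f748d089020, 0xbda35131145924a9a5b070de639420,
    0x0, 0x0,
    0xb95b41d987a89e99c22e51a445a020, 0x0,
    0xb8aac22c6f9b687896167490932820, 0xbb1c97c66868e47516b681882a2c20,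
    0x0, 0xbc4b05a19311e43312ca4d68f73420,
    0xb8a8b6ca637da2aa9a043b1054b820, 0xbb46bb169330a483ba046553153c20,
    0xb9626ac88c735433bd69452d314020, 0xb899521de3434ab5521649a6e94420,
    0x0, 0xb91cfb14cb90a8a645b04a0e3acc20,
    0x0, 0xbc4935347435909288eb749f065420,
    0xb91e9ac68244a075cdca1b0cd2d820, 0x0] (by decide +kernel)

theorem card_cent_A {a : M24} (ha : code a = sgA) : Nat.card (centralizer ({a} : Set M24)) = 1080 := by
  rw [card_cent_eq]
  exact le_antisymm (card_cent_M24_le_three ha (m1 := 16727631) (by decide +kernel))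
    (le_of_eq_of_le (by decide +kernel) (le_card_cent ha [(23, [0x32692b306173eaabb668200a714570, 0x1503365d72216c9501a7455ee81a23]),
  (2, [0xbac5430d49439acb460f3cc8595420, 0xb9a33809b223ac950d6f454e565020]),
  (4, [0xb99b28523343aaa4b16f258a718820, 0xbc92655a2c3b9706cea47d0a818820])] (by decide +kernel)))

theorem card_cent_B {b : M24} (hb : code b = sgB) : Nat.card (centralizer ({b} : Set M24)) = 504 := by
  rw [card_cent_eq]
  exact le_antisymm (card_M_B hb)
    (le_of_eq_of_le (by decide +kernel) (le_card_cent hb [(23, [0xa49b5482e33bcce9d94c8948114168, 0x9bd6240405239b48452334957b1d95]),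
  (2, [0xb8eb29a5cab2d0c8968411e0d79820, 0xbcdc668a0bb44895164f61ea345020]),
  (4, [0xbdab49ca307b9ac5a928398a418820, 0xbb54c79cb044486aae534d1d618820])] (by decide +kernel)))

theorem card_cent_conj {H : Type*} [Group H] (a τ : H) :
    Nat.card (centralizer ({τ * a * τ⁻¹} : Set H)) = Nat.card (centralizer ({a} : Set H)) := by
  rw [← LargeExtra.card_map_conj (centralizer ({a} : Set H)) τ]
  congr 2
  ext g
  rw [ExtraTwo.mem_map_conj, mem_cent, mem_cent]
  constructor <;> intro h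
  · calc τ⁻¹ * g * τ * a = τ⁻¹ * (g * (τ * a * τ⁻¹)) * τ := by group
      _ = _ := by rw [h]; group
  · calc g * (τ * a * τ⁻¹) = τ * (τ⁻¹ * g * τ * a) * τ⁻¹ := by group
      _ = _ := by rw [h]; group

theorem central_iff {H : Type*} [Group H] [Finite H] {y : H} (hy : orderOf y = 3)
    (h : (Nat.card H).factorization 3 = 3) :
    (∃ P : Sylow 3 H, zpowers y ≤ (center P).map (P : Subgroup H).subtype) ↔
      27 ∣ Nat.card (centralizer ({y} : Set H)) := by
  have := Fact.mk Nat.prime_three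
  constructor
  · rintro ⟨P, hP⟩
    have h1 := (ExtraTwo.mem_center_map.mp (hP (mem_zpowers y))).2
    have := card_dvd_of_le (show (P : Subgroup H) ≤ centralizer {y} from fun x hx =>
      mem_cent.mpr (h1 x hx))
    rwa [P.card_eq_multiplicity, h] at this
  · intro h27
    have h1 : IsPGroup 3 (zpowers (⟨y, mem_cent.mpr rfl⟩ : centralizer ({y} : Set H))) :=
      IsPGroup.of_card (n := 1) (by rw [Nat.card_zpowers, ← orderOf_coe, hy]; rfl)
    obtain ⟨P, hP⟩ := h1.exists_le_sylow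
    have h2 : (Nat.card (centralizer ({y} : Set H))).factorization 3 = 3 :=
      le_antisymm (((Nat.factorization_le_iff_dvd Nat.card_pos.ne' Nat.card_pos.ne').mpr
        (card_subgroup_dvd_card _) 3).trans h.le)
        ((Nat.prime_three.pow_dvd_iff_le_factorization Nat.card_pos.ne').mp h27)
    refine ⟨Sylow.ofCard ((P : Subgroup _).map (centralizer ({y} : Set H)).subtype) (by
      rw [card_map_of_injective (subtype_injective _), P.card_eq_multiplicity, h, h2]),
      zpowers_le.mpr (ExtraTwo.mem_center_map.mpr ⟨⟨_, hP (mem_zpowers _), rfl⟩, ?_⟩)⟩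
    rintro _ ⟨x, -, rfl⟩
    exact mem_cent.mp x.2

theorem dvd_cent_iff {H K : Type*} [Group H] [Finite H] [Group K] {π : H →* K}
    (h1 : Function.Surjective π) (h2 : IsPGroup 2 π.ker) {y : H} (hy : orderOf y = 3) :
    27 ∣ Nat.card (centralizer ({y} : Set H)) ↔ 27 ∣ Nat.card (centralizer ({π y} : Set K)) := by
  have h3 := CfsgLib.Coprime.map_centralizer_of_surjective h1 (A := zpowers y)
    (CfsgLib.Coprime.coprime_card_of_isPGroup h2 (by rw [Nat.card_zpowers, hy]; norm_num))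
    (Or.inl (CfsgLib.Coprime.isSolvable_zpowers y))
  have e : ∀ {H : Type _} [Group H] (y : H), centralizer (zpowers y : Set H) = centralizer {y} :=
    fun y => by ext x; rw [mem_cent_zpowers, mem_cent, eq_comm]
  have e' : ∀ y : K, centralizer (zpowers y : Set K) = centralizer {y} :=
    fun y => by ext x; rw [mem_cent_zpowers, mem_cent, eq_comm]
  rw [MonoidHom.map_zpowers, e, e'] at h3
  obtain ⟨n, hn⟩ := IsPGroup.iff_card.mp
    (h2.comap_of_injective _ (centralizer ({y} : Set H)).subtype_injective)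
  rw [← h3, ← (π.ker.comap (centralizer ({y} : Set H)).subtype).card_mul_index, hn,
    MonoidHom.comap_ker, index_ker, MonoidHom.range_comp, range_subtype]
  exact (Nat.Coprime.pow 3 n (by norm_num : Nat.Coprime 3 2)).dvd_mul_left

variable {G : Type*} [Group G] {Q : Subgroup G} {z : G} {L : leechLattice → G → Prop}
  {e : centralizer ({z} : Set G) →* Spor.Co1}

theorem MT.three_std [Finite G] (m : MT Q z L e) {s : G} (hs : L (e8 none) s) {Y : Subgroup G}
    (hY : Y ≤ centralizer ({z, s} : Set G)) (hY3 : Nat.card Y = 3) {a b : M24} (ha : code a = sgA)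
    (hb : code b = sgB) : ∃ y : centralizer ({z, s} : Set G), Y = zpowers (y : G) ∧ y ^ 3 = 1 ∧
      ∃ L' e', MT Q z L' e' ∧ L' (e8 none) s ∧
        ∃ c, (QuotientGroup.mk (permAut c) : Spor.Co1) = e' (inc2 z s y) ∧ (c = a ∨ c = b) ∧
          ((∃ P : Sylow 3 (centralizer ({z, s} : Set G)), Y.subgroupOf _ ≤
            (center P).map (P : Subgroup (centralizer ({z, s} : Set G))).subtype) ↔ c = a) := by
  obtain ⟨π, h1, h2, h3⟩ := m.exists_pi hs
  obtain ⟨n, hn⟩ := IsPGroup.iff_card.mp h2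
  obtain ⟨y, rfl, hy⟩ := exists_zpowers_of_card hY Nat.prime_three hY3
  have hy' := orderOf_map_of_ker h2 Nat.prime_three (by norm_num) hy
  have h4 := (central_iff hy (by
    rw [← π.ker.card_mul_index, index_ker, MonoidHom.range_eq_top.mpr h1, card_top, card_M24, hn,
      Nat.factorization_mul (by positivity) (by norm_num), Finsupp.add_apply,
      Nat.prime_two.factorization_pow, Finsupp.single_eq_of_ne (by norm_num), zero_add]
    decide +kernel)).trans (dvd_cent_iff h1 h2 hy)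
  have h5 : (zpowers (y : G)).subgroupOf (centralizer ({z, s} : Set G)) = zpowers y := by
    rw [← comap_map_eq_self_of_injective (subtype_injective _) (zpowers y), MonoidHom.map_zpowers]; rfl
  have h6 : y ^ 3 = 1 := hy ▸ pow_orderOf_eq_one y
  have h7 : ∀ c τ : M24, π y = τ * c * τ⁻¹ → c ^ 3 = 1 := fun c τ h => by
    rw [← conj_eq_one_iff (a := τ), ← conj_pow, ← h, ← map_pow, h6, map_one]
  rw [h5]
  refine ⟨y, rfl, h6, ?_⟩
  obtain ⟨τ, h | h⟩ := three_cases ha hb hy' <;>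
    obtain ⟨L', e', m', f1, f2⟩ := m.exists_std hs Nat.prime_three (by norm_num) h6 (h7 _ _ h)
      (τ := τ) fun g hg => h ▸ h3 _ g hg
  · exact ⟨L', e', m', f1, a, f2, Or.inl rfl, by
      rw [h4, h, card_cent_conj, card_cent_A ha]; simp⟩
  · refine ⟨L', e', m', f1, b, f2, Or.inr rfl, ?_⟩
    have : b ≠ a := fun e => absurd (hb.symm.trans (e ▸ ha)) (by decide)
    rw [h4, h, card_cent_conj, card_cent_B hb]; simp [this]

end CfsgLib.MType
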