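import Mathlib
import Cfsg.Prelude.Def_MonsterType
import Cfsg.Agent.Lib.AltCover.Pres

/-!
The wreath product `A₅ ≀ 2`: generators, order, no normal 2-subgroup.
-/

namespace CfsgLib.MType.Wreath

open Cfsg Subgroup Equiv

/-- the wreath product -/
abbrev W := alternatingFiveWreathTwo

/-- the alternating group of degree 5 -/
abbrev A5 := alternatingGroup (Fin 5)

/-- the base group -/
def φ : A5 × A5 →* W :=
  (Perm.sumCongrHom _ _ |>.comp ((alternatingGroup _).subtype.prodMap (alternatingGroup _).subtype)).codRestrict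
    _ fun x => subset_closure (Or.inl ⟨x.1, x.2, rfl⟩)

/-- the swap -/
def sw : W := ⟨Equiv.sumComm _ _, subset_closure (Or.inr rfl)⟩

theorem sw_mul_self : sw * sw = 1 := Subtype.ext (Equiv.ext fun x => by cases x <;> rfl)

theorem sw_mul (x : A5 × A5) : sw * φ x = φ x.swap * sw :=
  Subtype.ext (Equiv.ext fun y => by cases y <;> rfl)

theorem φ_injective : Function.Injective φ := fun x y h => by
  have := Perm.sumCongrHom_injective (congrArg Subtype.val h)
  exact Prod.ext (Subtype.ext (congrArg Prod.fst this)) (Subtype.ext (congrArg Prod.snd this))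

theorem φ_ne (x y : A5 × A5) : φ x ≠ φ y * sw := fun h => by
  have := congrArg (fun g : W => (g : Perm (Fin 5 ⊕ Fin 5)) (Sum.inl 0)) h
  exact Sum.inl_ne_inr this

theorem eq_top_of {H : Subgroup W} (h1 : ∀ x, φ x ∈ H) (h2 : sw ∈ H) : H = ⊤ := by
  refine eq_top_iff.mpr (closure_closure_coe_preimage.ge.trans ((closure_le _).mpr ?_))
  rintro t (⟨a, b, e⟩ | e)
  · rw [show t = φ (a, b) from Subtype.ext e]; exact h1 _
  · rw [show t = sw from Subtype.ext e]; exact h2

theorem cases (t : W) : ∃ x, t = φ x ∨ t = φ x * sw := by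
  let H : Subgroup W :=
    { carrier := {t | ∃ x, t = φ x ∨ t = φ x * sw}
      one_mem' := ⟨1, Or.inl (map_one _).symm⟩
      mul_mem' := by
        rintro _ _ ⟨x, rfl | rfl⟩ ⟨y, rfl | rfl⟩
        · exact ⟨x * y, Or.inl (map_mul _ _ _).symm⟩
        · exact ⟨x * y, Or.inr (by rw [map_mul, mul_assoc])⟩
        · exact ⟨x * y.swap, Or.inr (by rw [map_mul, mul_assoc, sw_mul, mul_assoc])⟩
        · exact ⟨x * y.swap, Or.inl (by
            rw [map_mul, mul_assoc, ← mul_assoc sw, sw_mul, mul_assoc, sw_mul_self, mul_one])⟩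
      inv_mem' := by
        rintro _ ⟨x, rfl | rfl⟩
        · exact ⟨x⁻¹, Or.inl (map_inv _ _).symm⟩
        · exact ⟨x⁻¹.swap, Or.inr (by
            rw [mul_inv_rev, inv_eq_of_mul_eq_one_right sw_mul_self, ← map_inv, sw_mul])⟩ }
  have : t ∈ H := by rw [eq_top_of (H := H) (fun x => ⟨x, Or.inl rfl⟩) ⟨1, Or.inr (by simp)⟩]; trivial
  exact this

theorem card_W : Nat.card W = 7200 := by
  have : Function.Bijective (Sum.elim φ fun x => φ x * sw) := by
    refine ⟨φ_injective.sumElim ((mul_left_injective sw).comp φ_injective) φ_ne, fun t => ?_⟩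
    obtain ⟨x, rfl | rfl⟩ := cases t
    exacts [⟨Sum.inl x, rfl⟩, ⟨Sum.inr x, rfl⟩]
  rw [← Nat.card_eq_of_bijective _ this, Nat.card_sum, Nat.card_prod, nat_card_alternatingGroup]
  simp [Nat.factorial]

theorem closure_gens : closure ({φ (AltCover.X 4 1, 1), φ (AltCover.X 4 2, 1), φ (AltCover.X 4 3, 1),
    sw} : Set W) = ⊤ := by
  set H := closure ({φ (AltCover.X 4 1, 1), φ (AltCover.X 4 2, 1), φ (AltCover.X 4 3, 1),
    sw} : Set W)
  have h2 : sw ∈ H := subset_closure (by simp)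
  have h1 : ∀ a, φ (a, 1) ∈ H := fun a => by
    have := AltCover.eq_top_of_X (H.comap (φ.comp (MonoidHom.inl _ _))) fun i h1 h2 => by
      interval_cases i <;> exact subset_closure (by simp)
    exact (this ▸ mem_top a : a ∈ H.comap (φ.comp (MonoidHom.inl _ _)))
  refine eq_top_of (fun x => ?_) h2
  have : φ x = φ (x.1, 1) * (sw * φ (x.2, 1) * sw) := by
    rw [sw_mul, mul_assoc, sw_mul_self, mul_one, ← map_mul]; simp
  rw [this]
  exact H.mul_mem (h1 _) (H.mul_mem (H.mul_mem h2 (h1 _)) h2)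

theorem two_eq_bot (K : Subgroup W) (hn : K.Normal) (hK : IsPGroup 2 K) : K = ⊥ := by
  have hs : IsSimpleGroup A5 := alternatingGroup.isSimpleGroup (by simp)
  have hA : ∀ N : Subgroup A5, N.Normal → IsPGroup 2 N → N = ⊥ := fun N h1 h2 =>
    h1.eq_bot_or_eq_top.resolve_right fun e => by
      obtain ⟨n, hn⟩ := IsPGroup.iff_card.mp h2
      rw [e, card_top, nat_card_alternatingGroup] at hn
      have : 3 ∣ 2 ^ n := hn ▸ (by simp [Nat.factorial])
      exact absurd (Nat.prime_three.dvd_of_dvd_pow this) (by norm_num)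
  have h0 := hK.comap_of_injective φ φ_injective
  have h1 : ∀ x, φ x ∈ K → x = 1 := fun x hx => Prod.ext
    (mem_bot.mp (hA _ ((hn.comap φ).map _ Prod.fst_surjective) (h0.map (MonoidHom.fst _ _)) ▸
      mem_map_of_mem _ hx))
    (mem_bot.mp (hA _ ((hn.comap φ).map _ Prod.snd_surjective) (h0.map (MonoidHom.snd _ _)) ▸
      mem_map_of_mem _ hx))
  rw [eq_bot_iff]
  intro t ht
  obtain ⟨x, rfl | rfl⟩ := cases t
  · rw [h1 x ht, map_one]; exact one_mem _
  · obtain ⟨a, ha⟩ := exists_ne (1 : A5)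
    have h2 := K.mul_mem (hn.conj_mem _ ht (φ (a, 1))) (K.inv_mem ht)
    have : φ (a, 1) * (φ x * sw) * (φ (a, 1))⁻¹ * (φ x * sw)⁻¹ = φ ((a, 1) * x * (1, a⁻¹) * x⁻¹) := by
      rw [← map_inv, mul_assoc (φ (a, 1)), mul_assoc (φ x), sw_mul, map_mul, map_mul, map_mul, map_inv φ x]
      simp only [mul_inv_rev, mul_assoc, mul_inv_cancel_left]; simp
    have := congrArg Prod.fst (h1 _ (this ▸ h2))
    simp [ha] at this

end CfsgLib.MType.Wreath
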